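/-
An automorphism of an extraspecial group acting fixed-point-freely on the central quotient, in an
irreducible representation that is faithful on the centre.
-/
import Mathlib
import Cfsg.Agent.Lib.ExtraspecialFPF.Multiplicities
import Cfsg.Agent.Lib.PGroups.Extraspecial

set_option autoImplicit false
set_option linter.style.haveILetI false

open Module
open scoped commutatorElement

namespace CfsgLib.ExtraspecialFPF

universe u v w

variable {K : Type u} [Field K] [IsAlgClosed K] {U : Type v} [AddCommGroup U] [Module K U]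
  [FiniteDimensional K U] [Nontrivial U] {P : Type w} [Group P] [Finite P] {q : ℕ} [hq : Fact q.Prime]

omit [IsAlgClosed K] [FiniteDimensional K U] [Finite P] hq in
/-- An element fixed modulo the centre by an automorphism of coprime period fixing the centre is
fixed. -/
theorem fixed_of_mod_center (hP : Cfsg.IsExtraspecial q P) (ψ : MulAut P) {k : ℕ} (hk : ψ ^ k = 1)
    (hkq : k.Coprime q) (hZ : ∀ z ∈ Subgroup.center P, ψ z = z) {g : P}
    (hg : g⁻¹ * ψ g ∈ Subgroup.center P) : ψ g = g := by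
  set c := g⁻¹ * ψ g with hc
  have hψg : ψ g = g * c := by rw [hc, mul_inv_cancel_left]
  have hstep : ∀ j : ℕ, (ψ ^ j) g = g * c ^ j := by
    intro j
    induction j with
    | zero => simp
    | succ j ih =>
      rw [pow_succ', MulAut.mul_apply, ih, map_mul, map_pow, hZ c hg, hψg, pow_succ', mul_assoc]
  have h1 : c ^ k = 1 := by
    have := hstep k
    rw [hk, MulAut.one_apply, left_eq_mul] at this
    exact this
  have h2 : c ^ q = 1 := by
    have h3 := pow_card_eq_one' (G := Subgroup.center P) (x := ⟨c, hg⟩)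
    rw [PGroups.IsExtraspecial.card_center hP] at h3
    exact congrArg Subtype.val h3
  have hc1 : c = 1 := by
    have := (pow_gcd_eq_one (a := c)).2 ⟨h1, h2⟩
    rwa [hkq.gcd_eq_one, pow_one] at this
  rw [hψg, hc1, mul_one]

/-- **The dimension and the eigenvalues.** -/
theorem exists_multiplicities_of_extraspecial (hP : Cfsg.IsExtraspecial q P) (hqK : (q : K) ≠ 0)
    (σ : P →* Module.End K U)
    (hirr : ∀ W : Submodule K U, (∀ g, ∀ w ∈ W, σ g w ∈ W) → W = ⊥ ∨ W = ⊤)
    (hfaith : ∃ z ∈ Subgroup.center P, σ z ≠ 1)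
    (φ : MulAut P) {h : ℕ} (hhK : (h : K) ≠ 0) {ζ : K} (hζ : IsPrimitiveRoot ζ h) (hφh : φ ^ h = 1)
    (hhq : h.Coprime q) (hZ : ∀ z ∈ Subgroup.center P, φ z = z)
    (hfpf : ∀ g i, 0 < i → i < h → (φ ^ i) g = g → g ∈ Subgroup.center P) :
    Nat.card P = q * finrank K U ^ 2 ∧
      h ∣ finrank K U ^ 2 - 1 ∧
      ∃ (y : Module.End K U) (t : ℕ), y ^ h = 1 ∧ (∀ g, y * σ g = σ (φ g) * y) ∧
        (finrank K U = h * t + 1 ∨ finrank K U + 1 = h * (t + 1)) ∧
        ∀ i, (∀ v, y v = ζ ^ i • v → v = 0) → finrank K U = 1 ∨ finrank K U + 1 = h := by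
  classical
  have hzc : ∀ g ∈ Subgroup.center P, ∃ c : K, σ g = c • (1 : Module.End K U) := fun g hg =>
    HallHigmanB.exists_scalar (fun a => σ a) hirr fun a => by
      rw [← map_mul, ← map_mul, Subgroup.mem_center_iff.1 hg a]
  have hscalar : ∀ g, (∃ c : K, σ g = c • (1 : Module.End K U)) ↔ g ∈ Subgroup.center P := by
    refine fun g => ⟨fun ⟨c, hc⟩ => Subgroup.mem_center_iff.2 fun a => ?_, hzc g⟩
    by_contra hne
    obtain ⟨z, hz, hz1⟩ := hfaith
    have hca : ⁅a, g⁆ ∈ Subgroup.center P := PGroups.IsExtraspecial.commutator_mem_center hP a g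
    have hσ : σ ⁅a, g⁆ = 1 := by
      rw [commutatorElement_def, map_mul, map_mul, map_mul, hc, mul_smul_comm, mul_one,
        smul_mul_assoc, ← map_mul, mul_inv_cancel, map_one]
      have h1 : σ g * σ g⁻¹ = 1 := by rw [← map_mul, mul_inv_cancel, map_one]
      rw [hc] at h1
      exact h1
    have hne' : (⟨⁅a, g⁆, hca⟩ : Subgroup.center P) ≠ 1 := fun h1 =>
      hne (commutatorElement_eq_one_iff_mul_comm.1 (congrArg Subtype.val h1))
    obtain ⟨j, hj⟩ := mem_powers_of_prime_card (PGroups.IsExtraspecial.card_center hP) hne'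
      (g' := (⟨z, hz⟩ : Subgroup.center P))
    have hj' : ⁅a, g⁆ ^ j = z := congrArg Subtype.val hj
    exact hz1 (by rw [← hj', map_pow, hσ, one_pow])
  obtain ⟨m, hm⟩ := IsPGroup.iff_card.1 (PGroups.IsExtraspecial.isPGroup hP)
  have hQK : (Nat.card P : K) ≠ 0 := by rw [hm, Nat.cast_pow]; exact pow_ne_zero _ hqK
  have hcomm : ∀ a b : P, ∃ c : K, σ (a * b * a⁻¹ * b⁻¹) = c • (1 : Module.End K U) := fun a b =>
    hzc _ (PGroups.IsExtraspecial.commutator_mem_center hP a b)
  have hfree : ∀ g : P, ∀ i, 0 < i → i < h →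
      (∃ c : K, σ (g⁻¹ * (φ ^ i) g) = c • (1 : Module.End K U)) →
        ∃ c : K, σ g = c • (1 : Module.End K U) := by
    intro g i hi hih hc
    rw [hscalar] at hc ⊢
    refine hfpf g i hi hih (fixed_of_mod_center hP (φ ^ i) (k := h) ?_ hhq (fun z hz => ?_) hc)
    · rw [← pow_mul, mul_comm, pow_mul, hφh, one_pow]
    · clear hih hc hi
      induction i with
      | zero => rfl
      | succ i ih => rw [pow_succ', MulAut.mul_apply, ih, hZ z hz]
  obtain ⟨h1, h2, h3⟩ := exists_multiplicities hQK σ hirr hcomm φ hhK hζ hφh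
    (fun g hg => by rw [hZ g ((hscalar g).1 hg)]) hfree
  refine ⟨?_, h2, h3⟩
  rw [h1, ← PGroups.IsExtraspecial.card_center hP]
  congr 1
  exact Nat.card_congr (Equiv.subtypeEquivRight hscalar)

end CfsgLib.ExtraspecialFPF
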